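import Mathlib
import Cfsg.Prelude.Def_Characters

/-!
# PF12: the congruence package

For a finite group `Λ`, a normal subgroup `H`, an element `u ∉ H` of prime order `p` and a
`u`-invariant linear character `θ` of `H`:

* `exists_hom_sup_zpowers`: for every `p`-th root of unity `w` there is a linear character of
  `F = H ⊔ ⟨u⟩` with value `θ h * w ^ i` at `h * u ^ i`;
* `sum_sup_zpowers`: sums over `F` as double sums;
* `congruence`: the congruence `a_1 - a_θ ≡ z 0 + γ (mod p)` and the integrality of `γ`.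
-/

set_option autoImplicit false

namespace Cfsg.Agent.Lib.Helper3.PF12

open Finset

universe u

variable {Λ : Type u} [Group Λ]

section basic

variable (H : Subgroup Λ) (u : Λ) {p : ℕ}

theorem zpow_mem_imp_dvd (hp : p.Prime) (hu : orderOf u = p) (huH : u ∉ H) (k : ℤ)
    (hk : u ^ k ∈ H) : (p : ℤ) ∣ k := by
  by_contra hnd
  have hcop : IsCoprime k (p : ℤ) := by
    have h1 : IsCoprime (p : ℤ) k := (Nat.prime_iff_prime_int.mp hp).coprime_iff_not_dvd.mpr hnd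
    exact h1.symm
  obtain ⟨a, b, hab⟩ := hcop
  apply huH
  have h2 : u = (u ^ k) ^ a * (u ^ (p : ℤ)) ^ b := by
    rw [← zpow_mul, ← zpow_mul, ← zpow_add]
    have : k * a + (p : ℤ) * b = 1 := by rw [← hab]; ring
    rw [this, zpow_one]
  have h3 : u ^ (p : ℤ) = 1 := by
    rw [zpow_natCast, ← hu, pow_orderOf_eq_one]
  rw [h2, h3, one_zpow, mul_one]
  exact H.zpow_mem hk a

theorem decomp_unique (hp : p.Prime) (hu : orderOf u = p) (huH : u ∉ H) {h h' : Λ}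
    (hh : h ∈ H) (hh' : h' ∈ H) {i j : ℕ} (e : h * u ^ i = h' * u ^ j) :
    h = h' ∧ i ≡ j [MOD p] := by
  have h1 : u ^ ((i : ℤ) - j) = h⁻¹ * h' := by
    rw [zpow_sub, zpow_natCast, zpow_natCast]
    have : u ^ i = h⁻¹ * (h' * u ^ j) := by rw [← e]; group
    rw [this]; group
  have h2 : u ^ ((i : ℤ) - j) ∈ H := by
    rw [h1]; exact H.mul_mem (H.inv_mem hh) hh'
  have h3 := zpow_mem_imp_dvd H u hp hu huH _ h2
  have h4 : u ^ ((i : ℤ) - j) = 1 := by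
    obtain ⟨c, hc⟩ := h3
    rw [hc, zpow_mul, zpow_natCast, ← hu, pow_orderOf_eq_one, one_zpow]
  constructor
  · rw [h4] at h1
    have : h' = h * (h⁻¹ * h') := by group
    rw [this, ← h1, mul_one]
  · have h5 : (i : ℤ) ≡ j [ZMOD p] := by
      rw [Int.modEq_iff_dvd]
      have : (j : ℤ) - i = -((i : ℤ) - j) := by ring
      rw [this]
      exact (dvd_neg).mpr h3
    exact Int.natCast_modEq_iff.mp h5

theorem mem_sup_zpowers [hN : H.Normal] (hp : p.Prime) (hu : orderOf u = p) (x : Λ) :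
    x ∈ H ⊔ Subgroup.zpowers u ↔ ∃ h ∈ H, ∃ i : ℕ, i < p ∧ x = h * u ^ i := by
  classical
  constructor
  · intro hx
    have h1 : x ∈ ((H ⊔ Subgroup.zpowers u : Subgroup Λ) : Set Λ) := hx
    rw [Subgroup.normal_mul] at h1
    obtain ⟨h, hh, y, hy, rfl⟩ := h1
    refine ⟨h, hh, ?_⟩
    have hfin : IsOfFinOrder u := by
      rw [← orderOf_pos_iff, hu]; exact hp.pos
    have hy' : y ∈ Subgroup.zpowers u := hy
    rw [hfin.mem_zpowers_iff_mem_range_orderOf] at hy'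
    obtain ⟨i, hi, rfl⟩ := Finset.mem_image.mp hy'
    rw [hu] at hi
    exact ⟨i, Finset.mem_range.mp hi, rfl⟩
  · rintro ⟨h, hh, i, -, rfl⟩
    exact Subgroup.mul_mem _ (Subgroup.mem_sup_left hh)
      (Subgroup.mem_sup_right (Subgroup.pow_mem _ (Subgroup.mem_zpowers u) i))

theorem mul_pow_mem_sup (h : Λ) (hh : h ∈ H) (i : ℕ) : h * u ^ i ∈ H ⊔ Subgroup.zpowers u :=
  Subgroup.mul_mem _ (Subgroup.mem_sup_left hh)
    (Subgroup.mem_sup_right (Subgroup.pow_mem _ (Subgroup.mem_zpowers u) i))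

end basic

section hom

variable (H : Subgroup Λ) [hN : H.Normal] (u : Λ) {p : ℕ}

theorem inv_pow (θ : H →* ℂˣ)
    (hinv : ∀ h : H, θ ⟨u * h * u⁻¹, hN.conj_mem h h.2 u⟩ = θ h) (i : ℕ) (h : Λ) (hh : h ∈ H) :
    θ ⟨u ^ i * h * (u ^ i)⁻¹, hN.conj_mem h hh (u ^ i)⟩ = θ ⟨h, hh⟩ := by
  induction i generalizing h with
  | zero =>
    congr 1
    apply Subtype.ext
    simp
  | succ n ih =>
    have h1 := hinv ⟨u ^ n * h * (u ^ n)⁻¹, hN.conj_mem h hh (u ^ n)⟩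
    rw [ih h hh] at h1
    rw [← h1]
    congr 1
    apply Subtype.ext
    simp only [pow_succ']
    group

/-- The linear characters of `H ⊔ ⟨u⟩` above a `u`-invariant linear character of `H`. -/
theorem exists_hom_sup_zpowers (hp : p.Prime) (hu : orderOf u = p) (huH : u ∉ H) (θ : H →* ℂˣ)
    (hinv : ∀ h : H, θ ⟨u * h * u⁻¹, hN.conj_mem h h.2 u⟩ = θ h) (w : ℂˣ) (hw : w ^ p = 1) :
    ∃ φ : ↥(H ⊔ Subgroup.zpowers u) →* ℂˣ,
      ∀ (h : Λ) (hh : h ∈ H) (i : ℕ) (hm : h * u ^ i ∈ H ⊔ Subgroup.zpowers u),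
        φ ⟨h * u ^ i, hm⟩ = θ ⟨h, hh⟩ * w ^ i := by
  classical
  have hex : ∀ x : ↥(H ⊔ Subgroup.zpowers u), ∃ hi : Λ × ℕ, hi.1 ∈ H ∧ (x : Λ) = hi.1 * u ^ hi.2 := by
    intro x
    obtain ⟨h, hh, i, -, e⟩ := (mem_sup_zpowers H u hp hu (x : Λ)).mp x.2
    exact ⟨(h, i), hh, e⟩
  choose c hc1 hc2 using hex
  let f : ↥(H ⊔ Subgroup.zpowers u) → ℂˣ := fun x => θ ⟨(c x).1, hc1 x⟩ * w ^ (c x).2
  have hwmod : ∀ i j : ℕ, i ≡ j [MOD p] → w ^ i = w ^ j := by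
    intro i j hij
    have h1 : orderOf w ∣ p := orderOf_dvd_of_pow_eq_one hw
    exact pow_eq_pow_iff_modEq.mpr (hij.of_dvd h1)
  have hf : ∀ (h : Λ) (hh : h ∈ H) (i : ℕ) (hm : h * u ^ i ∈ H ⊔ Subgroup.zpowers u),
      f ⟨h * u ^ i, hm⟩ = θ ⟨h, hh⟩ * w ^ i := by
    intro h hh i hm
    have e := hc2 ⟨h * u ^ i, hm⟩
    have h1 := decomp_unique H u hp hu huH hh (hc1 ⟨h * u ^ i, hm⟩) e
    show θ ⟨(c ⟨h * u ^ i, hm⟩).1, _⟩ * w ^ (c ⟨h * u ^ i, hm⟩).2 = _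
    rw [hwmod _ _ h1.2.symm]
    congr 2
    apply Subtype.ext
    exact h1.1.symm
  refine ⟨MonoidHom.mk' f ?_, hf⟩
  intro a b
  obtain ⟨h, hh, i, -, ea⟩ := (mem_sup_zpowers H u hp hu (a : Λ)).mp a.2
  obtain ⟨h', hh', j, -, eb⟩ := (mem_sup_zpowers H u hp hu (b : Λ)).mp b.2
  have hconj : u ^ i * h' * (u ^ i)⁻¹ ∈ H := hN.conj_mem h' hh' (u ^ i)
  have eab : ((a * b : ↥(H ⊔ Subgroup.zpowers u)) : Λ) =
      (h * (u ^ i * h' * (u ^ i)⁻¹)) * u ^ (i + j) := by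
    rw [Subgroup.coe_mul, ea, eb, pow_add]; group
  have ha' : a = ⟨h * u ^ i, mul_pow_mem_sup H u h hh i⟩ := Subtype.ext ea
  have hb' : b = ⟨h' * u ^ j, mul_pow_mem_sup H u h' hh' j⟩ := Subtype.ext eb
  have hab' : a * b = ⟨(h * (u ^ i * h' * (u ^ i)⁻¹)) * u ^ (i + j),
      mul_pow_mem_sup H u _ (H.mul_mem hh hconj) (i + j)⟩ := Subtype.ext eab
  rw [hab', hf _ (H.mul_mem hh hconj), ha', hb', hf _ hh, hf _ hh']
  have h2 : θ ⟨h * (u ^ i * h' * (u ^ i)⁻¹), H.mul_mem hh hconj⟩ =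
      θ ⟨h, hh⟩ * θ ⟨u ^ i * h' * (u ^ i)⁻¹, hconj⟩ := by
    rw [← map_mul]; rfl
  rw [h2, inv_pow H u θ hinv i h' hh', pow_add]
  rw [mul_mul_mul_comm]

end hom

section sums

variable (H : Subgroup Λ) [hN : H.Normal] (u : Λ) {p : ℕ}

/-- The parametrisation `(h, i) ↦ h * u ^ i` of `H ⊔ ⟨u⟩`. -/
theorem bijective_decomp (hp : p.Prime) (hu : orderOf u = p) (huH : u ∉ H) :
    Function.Bijective (fun q : H × Fin p =>
      (⟨(q.1 : Λ) * u ^ (q.2 : ℕ), mul_pow_mem_sup H u _ q.1.2 _⟩ : ↥(H ⊔ Subgroup.zpowers u))) := by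
  constructor
  · rintro ⟨h, i⟩ ⟨h', j⟩ e'
    have e2 : (h : Λ) * u ^ (i : ℕ) = h' * u ^ (j : ℕ) := congrArg Subtype.val e'
    obtain ⟨h1, h2⟩ := decomp_unique H u hp hu huH h.2 h'.2 e2
    have h3 : (i : ℕ) = j := Nat.ModEq.eq_of_lt_of_lt h2 i.2 j.2
    exact Prod.ext (Subtype.ext h1) (Fin.ext h3)
  · intro x
    obtain ⟨h, hh, i, hi, e'⟩ := (mem_sup_zpowers H u hp hu (x : Λ)).mp x.2
    exact ⟨(⟨h, hh⟩, ⟨i, hi⟩), Subtype.ext e'.symm⟩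

theorem sum_sup_zpowers [Fintype ↥H] [Fintype ↥(H ⊔ Subgroup.zpowers u)] (hp : p.Prime)
    (hu : orderOf u = p) (huH : u ∉ H) (g : ↥(H ⊔ Subgroup.zpowers u) → ℂ) :
    ∑ x : ↥(H ⊔ Subgroup.zpowers u), g x =
      ∑ i ∈ Finset.range p, ∑ h : H, g ⟨(h : Λ) * u ^ i, mul_pow_mem_sup H u h h.2 i⟩ := by
  classical
  rw [← (bijective_decomp H u hp hu huH).sum_comp g, Fintype.sum_prod_type, Finset.sum_comm]
  rw [← Fin.sum_univ_eq_sum_range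
    (fun i => ∑ h : H, g ⟨(h : Λ) * u ^ i, mul_pow_mem_sup H u h h.2 i⟩) p]

theorem card_sup_zpowers [Finite Λ] (hp : p.Prime) (hu : orderOf u = p) (huH : u ∉ H) :
    Nat.card ↥(H ⊔ Subgroup.zpowers u) = p * Nat.card H := by
  rw [← Nat.card_eq_of_bijective _ (bijective_decomp H u hp hu huH), Nat.card_prod,
    Nat.card_fin, mul_comm]

open scoped ComplexConjugate in
/-- The inner product of `ρ` with a linear character of `H ⊔ ⟨u⟩` of the shape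
`h * u ^ i ↦ θ h * w ^ i`. -/
theorem classInner_hom_formula [Finite Λ] [Fintype ↥H] [Fintype ↥(H ⊔ Subgroup.zpowers u)]
    (hp : p.Prime) (hu : orderOf u = p) (huH : u ∉ H) (ρ : Λ → ℂ) (θ : H →* ℂˣ) (w : ℂˣ)
    (φ : ↥(H ⊔ Subgroup.zpowers u) →* ℂˣ)
    (hφ : ∀ (h : Λ) (hh : h ∈ H) (i : ℕ) (hm : h * u ^ i ∈ H ⊔ Subgroup.zpowers u),
        φ ⟨h * u ^ i, hm⟩ = θ ⟨h, hh⟩ * w ^ i) :
    Cfsg.classInner (fun x : ↥(H ⊔ Subgroup.zpowers u) => ρ x) (fun x => ((φ x : ℂˣ) : ℂ)) =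
      ((p : ℂ) * (Nat.card H : ℂ))⁻¹ * ∑ i ∈ Finset.range p,
        conj ((w : ℂˣ) : ℂ) ^ i * ∑ h : H, ρ ((h : Λ) * u ^ i) * conj ((θ h : ℂˣ) : ℂ) := by
  unfold Cfsg.classInner
  rw [card_sup_zpowers H u hp hu huH, sum_sup_zpowers H u hp hu huH]
  push_cast
  congr 1
  refine Finset.sum_congr rfl (fun i _ => ?_)
  rw [Finset.mul_sum]
  refine Finset.sum_congr rfl (fun h _ => ?_)
  rw [hφ (h : Λ) h.2 i]
  push_cast
  rw [map_mul, map_pow]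
  ring

end sums

section main

variable (H : Subgroup Λ) [hN : H.Normal] (u : Λ) {p : ℕ}

open scoped ComplexConjugate

theorem classInner_sub_right {X : Type*} [Group X] [Fintype X] (f a b : X → ℂ) :
    Cfsg.classInner f (fun x => a x - b x) = Cfsg.classInner f a - Cfsg.classInner f b := by
  unfold Cfsg.classInner
  rw [← mul_sub, ← Finset.sum_sub_distrib]
  congr 1
  refine Finset.sum_congr rfl (fun x _ => ?_)
  rw [map_sub]; ring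

theorem sum_mul_comm_normal [Fintype ↥H] (ρ : Λ → ℂ) (g : Λ) :
    ∑ h : H, ρ ((h : Λ) * g) = ∑ h : H, ρ (g * h) := by
  rw [← Equiv.sum_comp (MulAut.conjNormal g⁻¹ : H ≃* H).toEquiv (fun h : H => ρ (g * h))]
  refine Finset.sum_congr rfl (fun h _ => ?_)
  congr 1
  simp only [MulEquiv.toEquiv_eq_coe, MulEquiv.coe_toEquiv, MulAut.conjNormal_apply]
  group

/-- **The congruence package.** -/
theorem congruence [Finite Λ] [Fintype ↥H] [Fintype ↥(H ⊔ Subgroup.zpowers u)] (hp : p.Prime)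
    (hu : orderOf u = p) (huH : u ∉ H) (ρ : Λ → ℂ) (θ₁ : H →* ℂˣ)
    (hinv : ∀ h : H, θ₁ ⟨u * h * u⁻¹, hN.conj_mem h h.2 u⟩ = θ₁ h) (z : ℕ → ℂ) (γ : ℂ)
    (hX1 : ∀ φ φ' : ↥(H ⊔ Subgroup.zpowers u) →* ℂˣ,
      (∀ (h : Λ) (hh : h ∈ H), φ ⟨h, Subgroup.mem_sup_left hh⟩ = θ₁ ⟨h, hh⟩) →
      (∀ (h : Λ) (hh : h ∈ H), φ' ⟨h, Subgroup.mem_sup_left hh⟩ = θ₁ ⟨h, hh⟩) →
      Cfsg.classInner (fun x : ↥(H ⊔ Subgroup.zpowers u) => ρ x) (fun x => ((φ x : ℂˣ) : ℂ)) =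
        Cfsg.classInner (fun x : ↥(H ⊔ Subgroup.zpowers u) => ρ x) (fun x => ((φ' x : ℂˣ) : ℂ)))
    (hX3 : ∀ φ ν : ↥(H ⊔ Subgroup.zpowers u) →* ℂˣ,
      (∀ (h : Λ) (hh : h ∈ H), φ ⟨h, Subgroup.mem_sup_left hh⟩ = θ₁ ⟨h, hh⟩) →
      (∀ (h : Λ) (hh : h ∈ H), ν ⟨h, Subgroup.mem_sup_left hh⟩ = 1) →
      ∃ m : ℤ, Cfsg.classInner (fun x : ↥(H ⊔ Subgroup.zpowers u) => ρ x)
        (fun x => ((φ x : ℂˣ) : ℂ) - ((ν x : ℂˣ) : ℂ)) = m)
    (hX2 : ∀ i : ℕ, 0 < i → i < p → ∑ h : H, ρ (u ^ i * h) = (Nat.card H : ℂ) * (z i + γ))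
    (hz : ∀ w : ℂ, w ^ p = 1 → ∃ m : ℤ, ∑ i ∈ Finset.range p, z i * w ^ i = (p : ℂ) * m) :
    (∃ g : ℤ, γ = g) ∧ ∃ m : ℤ,
      Cfsg.classInner (fun h : H => ρ h) (fun _ => 1) -
        Cfsg.classInner (fun h : H => ρ h) (fun h => ((θ₁ h : ℂˣ) : ℂ)) =
          z 0 + γ + (p : ℂ) * m := by
  classical
  have hp0 : (p : ℂ) ≠ 0 := by exact_mod_cast hp.ne_zero
  have hH0 : (Nat.card H : ℂ) ≠ 0 := by exact_mod_cast Nat.card_pos.ne'
  obtain ⟨ω, hω⟩ : ∃ ω : ℂ, IsPrimitiveRoot ω p := ⟨_, Complex.isPrimitiveRoot_exp p hp.ne_zero⟩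
  have hω0 : ω ≠ 0 := hω.ne_zero hp.ne_zero
  have hωc0 : conj ω ≠ 0 := by
    intro h; apply hω0; simpa using h
  let wu : ℕ → ℂˣ := fun k => (Units.mk0 (conj ω) hωc0) ^ k
  have hwu : ∀ k, (wu k) ^ p = 1 := by
    intro k
    apply Units.ext
    simp only [wu, Units.val_pow_eq_pow_val, Units.val_mk0, Units.val_one]
    rw [← map_pow, ← map_pow, ← pow_mul, mul_comm, pow_mul, hω.pow_eq_one, one_pow, map_one]
  have hwuval : ∀ k, conj ((wu k : ℂˣ) : ℂ) = ω ^ k := by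
    intro k
    simp only [wu, Units.val_pow_eq_pow_val, Units.val_mk0, map_pow, Complex.conj_conj]
  have hinv1 : ∀ h : H, (1 : H →* ℂˣ) ⟨u * h * u⁻¹, hN.conj_mem h h.2 u⟩ = (1 : H →* ℂˣ) h :=
    fun h => rfl
  choose Φ hΦ using fun k : ℕ => exists_hom_sup_zpowers H u hp hu huH θ₁ hinv (wu k) (hwu k)
  choose Nu hNu using fun k : ℕ => exists_hom_sup_zpowers H u hp hu huH 1 hinv1 (wu k) (hwu k)
  have hmem0 : ∀ (h : Λ) (hh : h ∈ H), h * u ^ 0 ∈ H ⊔ Subgroup.zpowers u :=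
    fun h hh => mul_pow_mem_sup H u h hh 0
  have hsub0 : ∀ (h : Λ) (hh : h ∈ H),
      (⟨h, Subgroup.mem_sup_left hh⟩ : ↥(H ⊔ Subgroup.zpowers u)) = ⟨h * u ^ 0, hmem0 h hh⟩ := by
    intro h hh
    apply Subtype.ext
    simp
  have hΦext : ∀ k (h : Λ) (hh : h ∈ H), Φ k ⟨h, Subgroup.mem_sup_left hh⟩ = θ₁ ⟨h, hh⟩ := by
    intro k h hh
    rw [hsub0 h hh, hΦ k h hh 0, pow_zero, mul_one]
  have hNuext : ∀ k (h : Λ) (hh : h ∈ H), Nu k ⟨h, Subgroup.mem_sup_left hh⟩ = 1 := by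
    intro k h hh
    rw [hsub0 h hh, hNu k h hh 0, pow_zero, mul_one]
    rfl
  set T : ℕ → ℂ := fun i => ∑ h : H, ρ ((h : Λ) * u ^ i) * conj ((θ₁ h : ℂˣ) : ℂ) with hT
  set S : ℕ → ℂ := fun i => ∑ h : H, ρ ((h : Λ) * u ^ i) with hS
  have fΦ : ∀ k, Cfsg.classInner (fun x : ↥(H ⊔ Subgroup.zpowers u) => ρ x)
      (fun x => ((Φ k x : ℂˣ) : ℂ)) =
      ((p : ℂ) * (Nat.card H : ℂ))⁻¹ * ∑ i ∈ Finset.range p, (ω ^ k) ^ i * T i := by
    intro k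
    rw [classInner_hom_formula H u hp hu huH ρ θ₁ (wu k) (Φ k) (hΦ k), hwuval]
  have fNu : ∀ k, Cfsg.classInner (fun x : ↥(H ⊔ Subgroup.zpowers u) => ρ x)
      (fun x => ((Nu k x : ℂˣ) : ℂ)) =
      ((p : ℂ) * (Nat.card H : ℂ))⁻¹ * ∑ i ∈ Finset.range p, (ω ^ k) ^ i * S i := by
    intro k
    rw [classInner_hom_formula H u hp hu huH ρ 1 (wu k) (Nu k) (hNu k), hwuval]
    simp [hS]
  have hsplit : ∀ f : ℕ → ℂ, ∑ i ∈ Finset.range p, f i =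
      ∑ i ∈ Finset.range (p - 1), f (i + 1) + f 0 := by
    intro f
    obtain ⟨q, hq⟩ := Nat.exists_eq_succ_of_ne_zero hp.ne_zero
    rw [hq, Finset.sum_range_succ']
    rfl
  -- the sum over the `p` extensions
  have hsumk : ∑ k ∈ Finset.range p, ∑ i ∈ Finset.range p, (ω ^ k) ^ i * T i = (p : ℂ) * T 0 := by
    rw [Finset.sum_comm, Finset.sum_eq_single_of_mem 0 (Finset.mem_range.mpr hp.pos)]
    · simp
    · intro i hi hi0
      rw [← Finset.sum_mul]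
      have h1 : IsPrimitiveRoot (ω ^ i) p :=
        hω.pow_of_coprime i (Nat.coprime_of_lt_prime hi0
          (Finset.mem_range.mp hi) hp).symm
      have h2 : ∑ k ∈ Finset.range p, (ω ^ k) ^ i = ∑ k ∈ Finset.range p, (ω ^ i) ^ k := by
        refine Finset.sum_congr rfl (fun k _ => ?_)
        rw [← pow_mul, ← pow_mul, mul_comm]
      rw [h2, h1.geom_sum_eq_zero hp.one_lt, zero_mul]
  have hc0 : Cfsg.classInner (fun x : ↥(H ⊔ Subgroup.zpowers u) => ρ x)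
      (fun x => ((Φ 0 x : ℂˣ) : ℂ)) = ((p : ℂ) * (Nat.card H : ℂ))⁻¹ * T 0 := by
    have h1 : ∑ k ∈ Finset.range p, Cfsg.classInner (fun x : ↥(H ⊔ Subgroup.zpowers u) => ρ x)
        (fun x => ((Φ k x : ℂˣ) : ℂ)) = ((p : ℂ) * (Nat.card H : ℂ))⁻¹ * ((p : ℂ) * T 0) := by
      rw [← hsumk, Finset.mul_sum]
      exact Finset.sum_congr rfl (fun k _ => fΦ k)
    have h2 : ∑ k ∈ Finset.range p, Cfsg.classInner (fun x : ↥(H ⊔ Subgroup.zpowers u) => ρ x)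
        (fun x => ((Φ k x : ℂˣ) : ℂ)) = (p : ℂ) * Cfsg.classInner
          (fun x : ↥(H ⊔ Subgroup.zpowers u) => ρ x) (fun x => ((Φ 0 x : ℂˣ) : ℂ)) := by
      rw [Finset.sum_congr rfl (fun k _ => hX1 (Φ k) (Φ 0) (hΦext k) (hΦext 0))]
      simp
    rw [h2] at h1
    apply mul_left_cancel₀ hp0
    rw [h1]; ring
  set aθ := Cfsg.classInner (fun h : H => ρ h) (fun h => ((θ₁ h : ℂˣ) : ℂ)) with haθ
  set a1 := Cfsg.classInner (fun h : H => ρ h) (fun _ => (1 : ℂ)) with ha1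
  have hT0 : T 0 = (Nat.card H : ℂ) * aθ := by
    rw [haθ, hT]
    unfold Cfsg.classInner
    rw [← mul_assoc, mul_inv_cancel₀ hH0, one_mul]
    simp
  have hS0 : S 0 = (Nat.card H : ℂ) * a1 := by
    rw [ha1, hS]
    unfold Cfsg.classInner
    rw [← mul_assoc, mul_inv_cancel₀ hH0, one_mul]
    simp
  have hSi : ∀ i ∈ Finset.range (p - 1), S (i + 1) = (Nat.card H : ℂ) * (z (i + 1) + γ) := by
    intro i hi
    have hi' : i + 1 < p := by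
      have := Finset.mem_range.mp hi
      omega
    rw [hS]
    show ∑ h : H, ρ ((h : Λ) * u ^ (i + 1)) = _
    rw [sum_mul_comm_normal H ρ (u ^ (i + 1)), hX2 (i + 1) (Nat.succ_pos i) hi']
  have hE : ∀ k, ∃ m : ℤ, (p : ℂ) * m =
      aθ - a1 - ∑ i ∈ Finset.range (p - 1), (ω ^ k) ^ (i + 1) * (z (i + 1) + γ) := by
    intro k
    obtain ⟨m, hm⟩ := hX3 (Φ 0) (Nu k) (hΦext 0) (hNuext k)
    refine ⟨m, ?_⟩
    rw [classInner_sub_right, hc0, fNu k, hsplit, hT0, hS0,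
      Finset.sum_congr rfl (fun i hi => by rw [hSi i hi])] at hm
    have h3 : ∑ i ∈ Finset.range (p - 1), (ω ^ k) ^ (i + 1) * ((Nat.card H : ℂ) * (z (i + 1) + γ))
        = (Nat.card H : ℂ) * ∑ i ∈ Finset.range (p - 1), (ω ^ k) ^ (i + 1) * (z (i + 1) + γ) := by
      rw [Finset.mul_sum]
      refine Finset.sum_congr rfl (fun i _ => ?_)
      ring
    rw [h3] at hm
    rw [← hm]
    field_simp
    ring
  obtain ⟨m0, hm0⟩ := hE 0
  obtain ⟨m1, hm1⟩ := hE 1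
  obtain ⟨M1, hM1⟩ := hz 1 (one_pow p)
  obtain ⟨M2, hM2⟩ := hz ω hω.pow_eq_one
  have hgeom := hω.geom_sum_eq_zero hp.one_lt
  rw [hsplit] at hM1 hM2 hgeom
  simp only [pow_zero, one_pow, mul_one] at hM1 hM2 hgeom hm0
  rw [pow_one] at hm1
  -- expand the sums
  have hA : ∑ i ∈ Finset.range (p - 1), (z (i + 1) + γ) =
      ∑ i ∈ Finset.range (p - 1), z (i + 1) + ((p : ℂ) - 1) * γ := by
    rw [Finset.sum_add_distrib, Finset.sum_const, Finset.card_range, nsmul_eq_mul,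
      Nat.cast_sub hp.one_le, Nat.cast_one]
  have hB : ∑ i ∈ Finset.range (p - 1), ω ^ (i + 1) * (z (i + 1) + γ) =
      ∑ i ∈ Finset.range (p - 1), z (i + 1) * ω ^ (i + 1) +
        (∑ i ∈ Finset.range (p - 1), ω ^ (i + 1)) * γ := by
    rw [Finset.sum_mul, ← Finset.sum_add_distrib]
    refine Finset.sum_congr rfl (fun i _ => ?_)
    ring
  have hm0' : (p : ℂ) * m0 = aθ - a1 - ∑ i ∈ Finset.range (p - 1), (z (i + 1) + γ) := by
    rw [hm0]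
    congr 1
    refine Finset.sum_congr rfl (fun i _ => ?_)
    rw [one_mul]
  rw [hA] at hm0'
  rw [hB] at hm1
  have hγ : γ = ((M2 - M1 - m0 + m1 : ℤ) : ℂ) := by
    apply mul_left_cancel₀ hp0
    push_cast
    linear_combination hm0' - hm1 - hM1 + hM2 + γ * hgeom
  refine ⟨⟨_, hγ⟩, ⟨-(m1 + M2), ?_⟩⟩
  push_cast
  linear_combination hm1 - hM2 - γ * hgeom

end main

end Cfsg.Agent.Lib.Helper3.PF12
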