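import Cfsg.Agent.Lib.Helper3.PF12.Congruence
import Cfsg.Agent.Lib.Helper3.CharCore
import Cfsg.Agent.Lib.Helper3.IndFun
import Cfsg.Agent.Lib.Helper3.BrauerIdeal
import Cfsg.Agent.Lib.Helper80.CharOps
import Cfsg.Agent.Lib.Helper80.Orthogonality
import Cfsg.Agent.Lib.Helper80.PrimeCodeg

/-!
# PF12, package (N2)

For two linear characters `φ, φ'` of `F = H ⊔ ⟨u⟩` extending the same `u`-invariant linear
character `θ₁` of the normal subgroup `H` (`u` of prime order `p`, `u ∉ H`):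
`‖Ind_F (φ - φ')‖² ≤ ‖Ind_H θ₁‖²`.
-/

set_option autoImplicit false

namespace Cfsg.Agent.Lib.Helper3.PF12

open Cfsg Finset

universe u

variable {Λ : Type u} [Group Λ]

section ext

variable (H : Subgroup Λ) [hN : H.Normal] (u : Λ) {p : ℕ}

/-- A homomorphism on `H ⊔ ⟨u⟩` is determined by its values on `H` and at `u`. -/
theorem hom_ext_sup_zpowers (hp : p.Prime) (hu : orderOf u = p)
    (φ ψ : ↥(H ⊔ Subgroup.zpowers u) →* ℂˣ)
    (h1 : ∀ (h : Λ) (hh : h ∈ H), φ ⟨h, Subgroup.mem_sup_left hh⟩ = ψ ⟨h, Subgroup.mem_sup_left hh⟩)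
    (h2 : φ ⟨u, Subgroup.mem_sup_right (Subgroup.mem_zpowers u)⟩ =
      ψ ⟨u, Subgroup.mem_sup_right (Subgroup.mem_zpowers u)⟩) : φ = ψ := by
  apply MonoidHom.ext
  intro x
  obtain ⟨h, hh, i, -, e⟩ := (mem_sup_zpowers H u hp hu (x : Λ)).mp x.2
  have hx : x = (⟨h, Subgroup.mem_sup_left hh⟩ : ↥(H ⊔ Subgroup.zpowers u)) *
      (⟨u, Subgroup.mem_sup_right (Subgroup.mem_zpowers u)⟩ : ↥(H ⊔ Subgroup.zpowers u)) ^ i := by
    apply Subtype.ext
    rw [Subgroup.coe_mul, Subgroup.coe_pow]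
    exact e
  rw [hx, map_mul, map_mul, map_pow, map_pow, h1 h hh, h2]

end ext

theorem classInner_self_re {X : Type*} [Group X] [Fintype X] (f : X → ℂ) :
    (Cfsg.classInner f f).re = (Nat.card X : ℝ)⁻¹ * ∑ g : X, ‖f g‖ ^ 2 := by
  unfold Cfsg.classInner
  have h3 : ∀ g : X, f g * (starRingEnd ℂ) (f g) = ((‖f g‖ ^ 2 : ℝ) : ℂ) := by
    intro g
    rw [Complex.mul_conj, Complex.normSq_eq_norm_sq]
  simp_rw [h3]
  rw [← Complex.ofReal_sum]
  have h4 : ((Nat.card X : ℂ))⁻¹ = (((Nat.card X : ℝ)⁻¹ : ℝ) : ℂ) := by push_cast; rfl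
  rw [h4, ← Complex.ofReal_mul, Complex.ofReal_re]

theorem classInner_self_re_nonneg {X : Type*} [Group X] [Fintype X] (f : X → ℂ) :
    0 ≤ (Cfsg.classInner f f).re := by
  rw [classInner_self_re]
  positivity

section main

variable [Fintype Λ] (H : Subgroup Λ) [hN : H.Normal] (u : Λ) {p : ℕ}

/-- **Package (N2).** -/
theorem norm_ind_sub_le (hp : p.Prime) (hu : orderOf u = p) (huH : u ∉ H) (θ₁ : H →* ℂˣ)
    (hinv : ∀ h : H, θ₁ ⟨u * h * u⁻¹, hN.conj_mem h h.2 u⟩ = θ₁ h)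
    (φ φ' : ↥(H ⊔ Subgroup.zpowers u) →* ℂˣ)
    (hφ : ∀ (h : Λ) (hh : h ∈ H), φ ⟨h, Subgroup.mem_sup_left hh⟩ = θ₁ ⟨h, hh⟩)
    (hφ' : ∀ (h : Λ) (hh : h ∈ H), φ' ⟨h, Subgroup.mem_sup_left hh⟩ = θ₁ ⟨h, hh⟩) :
    (Cfsg.classInner
        (Cfsg.indFun (H ⊔ Subgroup.zpowers u) (fun x => ((φ x : ℂˣ) : ℂ) - ((φ' x : ℂˣ) : ℂ)))
        (Cfsg.indFun (H ⊔ Subgroup.zpowers u)
          (fun x => ((φ x : ℂˣ) : ℂ) - ((φ' x : ℂˣ) : ℂ)))).re ≤
      (Cfsg.classInner (Cfsg.indFun H (fun h => ((θ₁ h : ℂˣ) : ℂ)))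
        (Cfsg.indFun H (fun h => ((θ₁ h : ℂˣ) : ℂ)))).re := by
  classical
  by_cases hEq : φ = φ'
  · subst hEq
    have h0 : (fun x : ↥(H ⊔ Subgroup.zpowers u) => ((φ x : ℂˣ) : ℂ) - ((φ x : ℂˣ) : ℂ)) = 0 := by
      funext x; simp
    rw [h0, Cfsg.Agent.Lib.Helper3.indFun_zero, Cfsg.Agent.Lib.Helper80.classInner_zero_left]
    simpa using classInner_self_re_nonneg _
  -- the primitive root and the character `ν` of `F / H`
  obtain ⟨ω, hω⟩ : ∃ ω : ℂ, IsPrimitiveRoot ω p := ⟨_, Complex.isPrimitiveRoot_exp p hp.ne_zero⟩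
  have hω0 : ω ≠ 0 := hω.ne_zero hp.ne_zero
  set ωu : ℂˣ := Units.mk0 ω hω0 with hωu
  have hωup : ωu ^ p = 1 := by
    apply Units.ext
    simp [hωu, hω.pow_eq_one]
  have hinv1 : ∀ h : H, (1 : H →* ℂˣ) ⟨u * h * u⁻¹, hN.conj_mem h h.2 u⟩ = (1 : H →* ℂˣ) h :=
    fun h => rfl
  obtain ⟨ν, hν⟩ := exists_hom_sup_zpowers H u hp hu huH 1 hinv1 ωu hωup
  set uF : ↥(H ⊔ Subgroup.zpowers u) :=
    ⟨u, Subgroup.mem_sup_right (Subgroup.mem_zpowers u)⟩ with huF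
  have hνH : ∀ (h : Λ) (hh : h ∈ H), ν ⟨h, Subgroup.mem_sup_left hh⟩ = 1 := by
    intro h hh
    have h1 := hν h hh 0 (mul_pow_mem_sup H u h hh 0)
    have h2 : (⟨h, Subgroup.mem_sup_left hh⟩ : ↥(H ⊔ Subgroup.zpowers u)) =
        ⟨h * u ^ 0, mul_pow_mem_sup H u h hh 0⟩ := by
      apply Subtype.ext; simp
    rw [h2, h1, pow_zero, mul_one]; rfl
  have hνu : ν uF = ωu := by
    have h1 := hν 1 H.one_mem 1 (mul_pow_mem_sup H u 1 H.one_mem 1)
    have h2 : uF = ⟨1 * u ^ 1, mul_pow_mem_sup H u 1 H.one_mem 1⟩ := by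
      apply Subtype.ext; simp [huF]
    rw [h2, h1, pow_one]
    have : (1 : H →* ℂˣ) ⟨1, H.one_mem⟩ = 1 := rfl
    rw [this, one_mul]
  -- `φ' = φ * ν ^ j₁`
  have huFp : uF ^ p = 1 := by
    apply Subtype.ext
    rw [Subgroup.coe_pow, Subgroup.coe_one]
    show u ^ p = 1
    rw [← hu, pow_orderOf_eq_one]
  set t : ℂˣ := φ' uF * (φ uF)⁻¹ with ht
  have htp : t ^ p = 1 := by
    have h1 : φ' uF ^ p = 1 := by rw [← map_pow, huFp, map_one]
    have h2 : φ uF ^ p = 1 := by rw [← map_pow, huFp, map_one]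
    rw [ht, mul_pow, h1, one_mul]
    simp [h2]
  have htp' : ((t : ℂˣ) : ℂ) ^ p = 1 := by
    rw [← Units.val_pow_eq_pow_val, htp, Units.val_one]
  have : NeZero p := ⟨hp.ne_zero⟩
  obtain ⟨j₁, hj₁, hj₁t⟩ := hω.eq_pow_of_pow_eq_one htp'
  have htω : t = ωu ^ j₁ := by
    apply Units.ext
    rw [Units.val_pow_eq_pow_val, hωu, Units.val_mk0, hj₁t]
  have hφ'eq : φ' = φ * ν ^ j₁ := by
    apply hom_ext_sup_zpowers H u hp hu
    · intro h hh
      rw [MonoidHom.mul_apply, MonoidHom.pow_apply, hνH h hh, one_pow, mul_one, hφ h hh, hφ' h hh]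
    · rw [MonoidHom.mul_apply, MonoidHom.pow_apply]
      show φ' uF = φ uF * ν uF ^ j₁
      rw [hνu, ← htω, ht]
      rw [mul_comm (φ' uF), ← mul_assoc, mul_inv_cancel, one_mul]
  have hj₁0 : j₁ ≠ 0 := by
    intro h0
    apply hEq
    rw [hφ'eq, h0]
    exact MonoidHom.ext fun x => by
      rw [MonoidHom.mul_apply, MonoidHom.pow_apply, pow_zero, mul_one]
  -- the family
  set Φ : ℕ → (↥(H ⊔ Subgroup.zpowers u) →* ℂˣ) := fun j => φ * ν ^ j with hΦ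
  set a : ℕ → Λ → ℂ := fun j =>
    Cfsg.indFun (H ⊔ Subgroup.zpowers u) (fun x => ((Φ j x : ℂˣ) : ℂ)) with ha
  have hchar : ∀ j, Cfsg.IsCharacter Λ (a j) := fun j =>
    Cfsg.Agent.Lib.Helper80.isCharacter_indFun (H ⊔ Subgroup.zpowers u)
      (Cfsg.Agent.Lib.Helper3.isCharacter_of_irr
        (Cfsg.Agent.Lib.Helper80.isIrrCharacter_of_hom (Φ j)))
  -- values of ν
  have hνval : ∀ x : ↥(H ⊔ Subgroup.zpowers u),
      ((x : Λ) ∈ H → ν x = 1) ∧ ((x : Λ) ∉ H → ((ν x : ℂˣ) : ℂ) ≠ 1) ∧ ((ν x : ℂˣ) : ℂ) ^ p = 1 := by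
    intro x
    obtain ⟨h, hh, i, hi, e⟩ := (mem_sup_zpowers H u hp hu (x : Λ)).mp x.2
    have hx : x = ⟨h * u ^ i, mul_pow_mem_sup H u h hh i⟩ := Subtype.ext e
    have hνx : ν x = ωu ^ i := by
      rw [hx, hν h hh i]
      have : (1 : H →* ℂˣ) ⟨h, hh⟩ = 1 := rfl
      rw [this, one_mul]
    refine ⟨fun hxH => ?_, fun hxH => ?_, ?_⟩
    · have h1 : (⟨x, hxH⟩ : H) = ⟨x, hxH⟩ := rfl
      have := hνH (x : Λ) hxH
      exact this
    · intro h1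
      rw [hνx, Units.val_pow_eq_pow_val, hωu, Units.val_mk0] at h1
      have h2 : p ∣ i := (hω.pow_eq_one_iff_dvd i).mp h1
      have h3 : i = 0 := Nat.eq_zero_of_dvd_of_lt h2 hi
      apply hxH
      rw [e, h3, pow_zero, mul_one]
      exact hh
    · rw [hνx, Units.val_pow_eq_pow_val, ← pow_mul, mul_comm, pow_mul, ← Units.val_pow_eq_pow_val,
        hωup, Units.val_one, one_pow]
  -- the sum of the family is `Ind_H θ₁`
  have hsumfun : ∀ y : Λ, Cfsg.extendByZero (H ⊔ Subgroup.zpowers u)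
      (∑ j ∈ Finset.range p, fun x => ((Φ j x : ℂˣ) : ℂ)) y =
      (p : ℂ) * Cfsg.extendByZero H (fun h => ((θ₁ h : ℂˣ) : ℂ)) y := by
    intro y
    by_cases hyF : y ∈ H ⊔ Subgroup.zpowers u
    · rw [Cfsg.Agent.Lib.Helper3.extendByZero_of_mem _ _ hyF, Finset.sum_apply]
      have hterm : ∀ j ∈ Finset.range p, ((Φ j ⟨y, hyF⟩ : ℂˣ) : ℂ) =
          ((φ ⟨y, hyF⟩ : ℂˣ) : ℂ) * ((ν ⟨y, hyF⟩ : ℂˣ) : ℂ) ^ j := by
        intro j _
        simp only [hΦ, MonoidHom.mul_apply, MonoidHom.pow_apply, Units.val_mul,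
          Units.val_pow_eq_pow_val]
      rw [Finset.sum_congr rfl hterm, ← Finset.mul_sum]
      obtain ⟨hv1, hv2, hv3⟩ := hνval ⟨y, hyF⟩
      by_cases hyH : y ∈ H
      · rw [Cfsg.Agent.Lib.Helper3.extendByZero_of_mem _ _ hyH, hv1 hyH]
        have := hφ y hyH
        rw [this]
        simp
        ring
      · rw [Cfsg.Agent.Lib.Helper3.extendByZero_of_not_mem _ _ hyH, mul_zero]
        rw [geom_sum_eq (hv2 hyH), hv3, sub_self, zero_div, mul_zero]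
    · have hyH : y ∉ H := fun h => hyF (Subgroup.mem_sup_left h)
      rw [Cfsg.Agent.Lib.Helper3.extendByZero_of_not_mem _ _ hyF,
        Cfsg.Agent.Lib.Helper3.extendByZero_of_not_mem _ _ hyH, mul_zero]
  have hsum : ∑ j ∈ Finset.range p, a j = Cfsg.indFun H (fun h => ((θ₁ h : ℂˣ) : ℂ)) := by
    rw [ha, ← Cfsg.Agent.Lib.Helper3.indFun_sum]
    funext g
    unfold Cfsg.indFun
    rw [Finset.sum_congr rfl (fun x _ => hsumfun (x⁻¹ * g * x)), ← Finset.mul_sum,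
      card_sup_zpowers H u hp hu huH]
    have hp0 : (p : ℂ) ≠ 0 := by exact_mod_cast hp.ne_zero
    have hH0 : (Nat.card H : ℂ) ≠ 0 := by exact_mod_cast Nat.card_pos.ne'
    push_cast
    field_simp
  -- the inner products
  have hnat : ∀ j k, ∃ m : ℕ, Cfsg.classInner (a j) (a k) = m := fun j k =>
    Cfsg.Agent.Lib.Helper80.classInner_nat (hchar j) (hchar k)
  choose M hM using hnat
  have hbb : Cfsg.classInner (Cfsg.indFun H (fun h => ((θ₁ h : ℂˣ) : ℂ)))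
      (Cfsg.indFun H (fun h => ((θ₁ h : ℂˣ) : ℂ))) =
      ∑ j ∈ Finset.range p, ∑ k ∈ Finset.range p, (M j k : ℂ) := by
    rw [← hsum, Cfsg.Agent.Lib.Helper80.classInner_sum_left]
    refine Finset.sum_congr rfl (fun j _ => ?_)
    rw [Cfsg.Agent.Lib.Helper80.classInner_sum_right]
    exact Finset.sum_congr rfl (fun k _ => hM j k)
  have hΦ0 : φ * ν ^ 0 = φ := MonoidHom.ext fun x => by
    rw [MonoidHom.mul_apply, MonoidHom.pow_apply, pow_zero, mul_one]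
  have ha0 : a 0 = Cfsg.indFun (H ⊔ Subgroup.zpowers u) (fun x => ((φ x : ℂˣ) : ℂ)) := by
    simp only [ha, hΦ]
    rw [hΦ0]
  have ha1 : a j₁ = Cfsg.indFun (H ⊔ Subgroup.zpowers u) (fun x => ((φ' x : ℂˣ) : ℂ)) := by
    simp only [ha, hΦ]
    rw [← hφ'eq]
  have hdiff : Cfsg.indFun (H ⊔ Subgroup.zpowers u)
      (fun x => ((φ x : ℂˣ) : ℂ) - ((φ' x : ℂˣ) : ℂ)) = a 0 - a j₁ := by
    rw [ha0, ha1, ← Cfsg.Agent.Lib.Helper3.indFun_sub]
    rfl
  have hsr : ∀ f g h : Λ → ℂ, Cfsg.classInner f (g - h) =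
      Cfsg.classInner f g - Cfsg.classInner f h := fun f g h => classInner_sub_right f g h
  rw [hdiff, hbb, Cfsg.Agent.Lib.Helper80.classInner_sub_left, hsr, hsr, hM, hM, hM, hM]
  have hre : (∑ j ∈ Finset.range p, ∑ k ∈ Finset.range p, (M j k : ℂ)).re =
      ((∑ j ∈ Finset.range p, ∑ k ∈ Finset.range p, M j k : ℕ) : ℝ) := by
    have h1 : (∑ j ∈ Finset.range p, ∑ k ∈ Finset.range p, (M j k : ℂ)) =
        ((∑ j ∈ Finset.range p, ∑ k ∈ Finset.range p, M j k : ℕ) : ℂ) := by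
      push_cast; rfl
    rw [h1]
    exact Complex.natCast_re _
  rw [hre]
  have hlow : M 0 0 + M j₁ j₁ ≤ ∑ j ∈ Finset.range p, ∑ k ∈ Finset.range p, M j k := by
    have h1 : ∑ j ∈ Finset.range p, M j j ≤ ∑ j ∈ Finset.range p, ∑ k ∈ Finset.range p, M j k :=
      Finset.sum_le_sum (fun j hj =>
        Finset.single_le_sum (f := fun k => M j k) (fun k _ => Nat.zero_le _) hj)
    have h2 : M 0 0 + M j₁ j₁ ≤ ∑ j ∈ Finset.range p, M j j := by
      have hsub2 : ({0, j₁} : Finset ℕ) ⊆ Finset.range p := by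
        intro x hx
        rcases Finset.mem_insert.mp hx with rfl | hx
        · exact Finset.mem_range.mpr hp.pos
        · rw [Finset.mem_singleton] at hx
          rw [hx]; exact Finset.mem_range.mpr hj₁
      have h3 := Finset.sum_le_sum_of_subset (f := fun j => M j j) hsub2
      rw [Finset.sum_pair (Ne.symm hj₁0)] at h3
      exact h3
    exact le_trans h2 h1
  have hlow' : ((M 0 0 : ℝ) + M j₁ j₁) ≤
      ((∑ j ∈ Finset.range p, ∑ k ∈ Finset.range p, M j k : ℕ) : ℝ) := by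
    exact_mod_cast hlow
  have hpos1 : (0 : ℝ) ≤ M 0 j₁ := Nat.cast_nonneg _
  have hpos2 : (0 : ℝ) ≤ M j₁ 0 := Nat.cast_nonneg _
  simp only [Complex.sub_re, Complex.natCast_re]
  linarith

end main

end Cfsg.Agent.Lib.Helper3.PF12
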