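import Mathlib
import Cfsg.Prelude.Def_Characters
import Cfsg.Prelude.Def_OddOrderChar
import Cfsg.Agent.Lib.Helper3.CharCore
import Cfsg.Agent.Lib.Helper3.CharValues
import Cfsg.Agent.S1525

/-!
# PF12: the norm inequality for two Dade triples with disjoint supports

If `(A₁, L, R₁)` and `(A₂, N, R₂)` satisfy the Dade hypothesis and no element of `G` is conjugate
both into a coset `a R₁(a)` (`a ∈ A₁`) and into a coset `a R₂(a)` (`a ∈ A₂`), then for every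
irreducible character `ψ` of `G` the two local norms of the averaged restrictions of `ψ`
add up to at most `1 - ψ(1)² / |G|`.
-/

set_option autoImplicit false

namespace Cfsg.Agent.Lib.Helper3.PF12

open Cfsg

universe u

variable {G : Type u} [Group G]

/-- The Dade support `{g | g conjugate into a R(a), a ∈ A}` does not contain `1`. -/
theorem one_not_mem_dadeSupport (A : Set G) (L : Subgroup G) (R : G → Subgroup G)
    (hD : DadeHypothesis A L R) :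
    (1 : G) ∉ {g : G | ∃ a ∈ A, ∃ u ∈ R a, ∃ x : G, x * g * x⁻¹ = a * u} := by
  rintro ⟨a, ha, u, hu, x, hx⟩
  have h1 : a * u = 1 := by rw [← hx]; group
  have h2 : u = a⁻¹ := by
    have : u = a⁻¹ * (a * u) := by group
    rw [this, h1, mul_one]
  have haL : a ∈ L := hD.subset ha
  have h3 : a⁻¹ ∈ R a ⊓ (L ⊓ Subgroup.centralizer ({a} : Set G)) := by
    refine ⟨h2 ▸ hu, L.inv_mem haL, ?_⟩
    show a⁻¹ ∈ Subgroup.centralizer ({a} : Set G)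
    rw [Subgroup.mem_centralizer_iff]
    intro y hy
    rw [Set.mem_singleton_iff] at hy
    rw [hy]; group
  rw [hD.inf_eq_bot a ha, Subgroup.mem_bot, inv_eq_one] at h3
  exact hD.one_not_mem (h3 ▸ ha)

theorem sum_norm_sq_irr [Fintype G] {ψ : G → ℂ} (hψ : IsIrrCharacter G ψ) :
    ∑ g : G, ‖ψ g‖ ^ 2 = (Nat.card G : ℝ) := by
  have h1 := Cfsg.Agent.Lib.Helper3.classInner_irr_self hψ
  unfold Cfsg.classInner at h1
  have hG : (Nat.card G : ℂ) ≠ 0 := by exact_mod_cast Nat.card_pos.ne'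
  have h2 : ∑ g : G, ψ g * (starRingEnd ℂ) (ψ g) = (Nat.card G : ℂ) := by
    have h0 : (Nat.card G : ℂ) * ((Nat.card G : ℂ)⁻¹ * ∑ g : G, ψ g * (starRingEnd ℂ) (ψ g)) =
        (Nat.card G : ℂ) * 1 := by rw [h1]
    rw [← mul_assoc, mul_inv_cancel₀ hG, one_mul, mul_one] at h0
    exact h0
  have h3 : ∀ g : G, ψ g * (starRingEnd ℂ) (ψ g) = ((‖ψ g‖ ^ 2 : ℝ) : ℂ) := by
    intro g
    rw [Complex.mul_conj, Complex.normSq_eq_norm_sq]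
  simp_rw [h3] at h2
  rw [← Complex.ofReal_sum] at h2
  exact_mod_cast h2

/-- **The norm inequality for two Dade triples with disjoint supports.** -/
theorem two_dade_norm [Fintype G] (A₁ A₂ : Set G) (L N : Subgroup G) [Fintype L] [Fintype N]
    (R₁ R₂ : G → Subgroup G) (hD₁ : DadeHypothesis A₁ L R₁) (hD₂ : DadeHypothesis A₂ N R₂)
    (hdisj : ∀ g : G, (∃ a ∈ A₁, ∃ u ∈ R₁ a, ∃ x : G, x * g * x⁻¹ = a * u) →
      (∃ a ∈ A₂, ∃ u ∈ R₂ a, ∃ x : G, x * g * x⁻¹ = a * u) → False)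
    (ψ : G → ℂ) (hψ : IsIrrCharacter G ψ) (f₁ : L → ℂ) (f₂ : N → ℂ)
    (hf₁ : ∀ a : L, (a : G) ∈ A₁ →
      f₁ a = (Nat.card (R₁ a) : ℂ)⁻¹ * ∑ᶠ u ∈ (R₁ a : Set G), ψ (a * u))
    (hf₂ : ∀ a : N, (a : G) ∈ A₂ →
      f₂ a = (Nat.card (R₂ a) : ℂ)⁻¹ * ∑ᶠ u ∈ (R₂ a : Set G), ψ (a * u)) :
    (Nat.card L : ℝ)⁻¹ * ∑ᶠ a ∈ {a : L | (a : G) ∈ A₁}, ‖f₁ a‖ ^ 2 +
      (Nat.card N : ℝ)⁻¹ * ∑ᶠ a ∈ {a : N | (a : G) ∈ A₂}, ‖f₂ a‖ ^ 2 ≤
        1 - ‖ψ 1‖ ^ 2 / (Nat.card G : ℝ) := by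
  classical
  have hcf : IsClassFunction G ψ :=
    Cfsg.Agent.Lib.Helper3.isClassFunction_of_isCharacter
      (Cfsg.Agent.Lib.Helper3.isCharacter_of_irr hψ)
  have h1 := Cfsg.Agent.S1525.result A₁ L R₁ hD₁ ψ hcf f₁ hf₁
  have h2 := Cfsg.Agent.S1525.result A₂ N R₂ hD₂ ψ hcf f₂ hf₂
  set T₁ : Set G := {g : G | ∃ a ∈ A₁, ∃ u ∈ R₁ a, ∃ x : G, x * g * x⁻¹ = a * u} with hT₁
  set T₂ : Set G := {g : G | ∃ a ∈ A₂, ∃ u ∈ R₂ a, ∃ x : G, x * g * x⁻¹ = a * u} with hT₂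
  have e1 : ∑ᶠ g ∈ T₁, ‖ψ g‖ ^ 2 = ∑ g ∈ (Set.toFinite T₁).toFinset, ‖ψ g‖ ^ 2 :=
    finsum_mem_eq_finite_toFinset_sum _ _
  have e2 : ∑ᶠ g ∈ T₂, ‖ψ g‖ ^ 2 = ∑ g ∈ (Set.toFinite T₂).toFinset, ‖ψ g‖ ^ 2 :=
    finsum_mem_eq_finite_toFinset_sum _ _
  rw [e1] at h1
  rw [e2] at h2
  set s₁ := (Set.toFinite T₁).toFinset with hs₁
  set s₂ := (Set.toFinite T₂).toFinset with hs₂
  have hd12 : Disjoint s₁ s₂ := by
    rw [Finset.disjoint_left]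
    intro g hg1 hg2
    rw [hs₁, Set.Finite.mem_toFinset] at hg1
    rw [hs₂, Set.Finite.mem_toFinset] at hg2
    exact hdisj g hg1 hg2
  have hone : (1 : G) ∉ s₁ ∪ s₂ := by
    intro h
    rcases Finset.mem_union.mp h with h | h
    · rw [hs₁, Set.Finite.mem_toFinset] at h
      exact one_not_mem_dadeSupport A₁ L R₁ hD₁ h
    · rw [hs₂, Set.Finite.mem_toFinset] at h
      exact one_not_mem_dadeSupport A₂ N R₂ hD₂ h
  have hsum : ∑ g ∈ s₁, ‖ψ g‖ ^ 2 + ∑ g ∈ s₂, ‖ψ g‖ ^ 2 + ‖ψ 1‖ ^ 2 ≤ (Nat.card G : ℝ) := by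
    rw [← sum_norm_sq_irr hψ, ← Finset.sum_union hd12, add_comm,
      ← Finset.sum_insert (f := fun g => ‖ψ g‖ ^ 2) hone]
    exact Finset.sum_le_sum_of_subset_of_nonneg (Finset.subset_univ _)
      (fun g _ _ => by positivity)
  have hG : (0 : ℝ) < Nat.card G := by exact_mod_cast Nat.card_pos
  have h3 : (Nat.card G : ℝ)⁻¹ * ∑ g ∈ s₁, ‖ψ g‖ ^ 2 + (Nat.card G : ℝ)⁻¹ * ∑ g ∈ s₂, ‖ψ g‖ ^ 2
      ≤ 1 - ‖ψ 1‖ ^ 2 / (Nat.card G : ℝ) := by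
    rw [← mul_add, inv_mul_le_iff₀ hG, mul_sub, mul_one, mul_div_cancel₀ _ hG.ne']
    linarith
  linarith

end Cfsg.Agent.Lib.Helper3.PF12
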