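import Cfsg.Agent.Lib.Helper3.PF12.Norm
import Cfsg.Agent.Lib.Helper4.PF12.LSideA
import Cfsg.Agent.Lib.Helper95.PF12.SumSq
import Cfsg.Agent.Lib.Helper26.VChar

/-!
# PF12, package (NC): the norm inequality in the terms of the character core
-/

set_option autoImplicit false

namespace Cfsg.Agent.Lib.Helper3.PF12

open Cfsg Cfsg.Agent.Lib.Helper4.PF12

universe u

variable {G : Type u} [Group G]

/-- `two_dade_norm` for a generalized character of norm one (an irreducible character up to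
sign), without the term `ψ(1)² / |G|`. -/
theorem two_dade_norm_pm [Fintype G] (A₁ A₂ : Set G) (L N : Subgroup G) [Fintype L] [Fintype N]
    (R₁ R₂ : G → Subgroup G) (hD₁ : DadeHypothesis A₁ L R₁) (hD₂ : DadeHypothesis A₂ N R₂)
    (hdisj : ∀ g : G, (∃ a ∈ A₁, ∃ u ∈ R₁ a, ∃ x : G, x * g * x⁻¹ = a * u) →
      (∃ a ∈ A₂, ∃ u ∈ R₂ a, ∃ x : G, x * g * x⁻¹ = a * u) → False)
    (ψ : G → ℂ) (hψ : IsGeneralizedCharacter G ψ) (hψ1 : classInner ψ ψ = 1)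
    (f₁ : L → ℂ) (f₂ : N → ℂ)
    (hf₁ : ∀ a : L, (a : G) ∈ A₁ →
      f₁ a = (Nat.card (R₁ a) : ℂ)⁻¹ * ∑ᶠ u ∈ (R₁ a : Set G), ψ (a * u))
    (hf₂ : ∀ a : N, (a : G) ∈ A₂ →
      f₂ a = (Nat.card (R₂ a) : ℂ)⁻¹ * ∑ᶠ u ∈ (R₂ a : Set G), ψ (a * u)) :
    (Nat.card L : ℝ)⁻¹ * ∑ᶠ a ∈ {a : L | (a : G) ∈ A₁}, ‖f₁ a‖ ^ 2 +
      (Nat.card N : ℝ)⁻¹ * ∑ᶠ a ∈ {a : N | (a : G) ∈ A₂}, ‖f₂ a‖ ^ 2 ≤ 1 := by
  classical
  have hG : (0 : ℝ) < Nat.card G := by exact_mod_cast Nat.card_pos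
  have : Fintype (IrrCharacter G) := Fintype.ofFinite (IrrCharacter G)
  rcases Cfsg.Agent.Lib.Helper26.irr_or_neg_of_norm_one hψ hψ1 with h | h
  · have := two_dade_norm A₁ A₂ L N R₁ R₂ hD₁ hD₂ hdisj ψ h f₁ f₂ hf₁ hf₂
    have h2 : 0 ≤ ‖ψ 1‖ ^ 2 / (Nat.card G : ℝ) := by positivity
    linarith
  · have := two_dade_norm A₁ A₂ L N R₁ R₂ hD₁ hD₂ hdisj (-ψ) h (-f₁) (-f₂)
      (by
        intro a ha
        rw [Pi.neg_apply, hf₁ a ha]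
        simp only [Pi.neg_apply]
        rw [finsum_mem_neg_distrib (f := fun u => ψ ((a : G) * u))
          (Set.toFinite (R₁ (a : G) : Set G)), mul_neg])
      (by
        intro a ha
        rw [Pi.neg_apply, hf₂ a ha]
        simp only [Pi.neg_apply]
        rw [finsum_mem_neg_distrib (f := fun u => ψ ((a : G) * u))
          (Set.toFinite (R₂ (a : G) : Set G)), mul_neg])
    simp only [Pi.neg_apply, norm_neg] at this
    have h2 : 0 ≤ ‖ψ 1‖ ^ 2 / (Nat.card G : ℝ) := by positivity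
    linarith

/-- The Dade hypothesis passes to the subset `H \ {1}` for a normal subgroup `H` of `L`. -/
theorem dade_sub_normal (L : Subgroup G) (H : Subgroup L) [hHn : H.Normal] (AL : Set G)
    (RL : G → Subgroup G) (hDL : DadeHypothesis AL L RL)
    (hHA : ∀ x : L, x ∈ H → x ≠ 1 → (x : G) ∈ AL) :
    DadeHypothesis {g : G | ∃ h : L, h ∈ H ∧ h ≠ 1 ∧ (h : G) = g} L RL := by
  have hsub : ∀ g, g ∈ {g : G | ∃ h : L, h ∈ H ∧ h ≠ 1 ∧ (h : G) = g} → g ∈ AL := by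
    rintro g ⟨h, hh, h1, rfl⟩
    exact hHA h hh h1
  refine
    { one_not_mem := fun h => hDL.one_not_mem (hsub 1 h)
      subset := fun g hg => hDL.subset (hsub g hg)
      conj_mem := ?_
      fusion := fun a ha g hg => hDL.fusion a (hsub a ha) g (hsub _ hg)
      le_centralizer := fun a ha => hDL.le_centralizer a (hsub a ha)
      conj_mem_H := fun a ha => hDL.conj_mem_H a (hsub a ha)
      inf_eq_bot := fun a ha => hDL.inf_eq_bot a (hsub a ha)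
      sup_eq := fun a ha => hDL.sup_eq a (hsub a ha)
      coprime := fun a ha b hb => hDL.coprime a (hsub a ha) b (hsub b hb) }
  rintro x hx a ⟨h, hh, h1, rfl⟩
  refine ⟨⟨x, hx⟩ * h * ⟨x, hx⟩⁻¹, hHn.conj_mem h hh ⟨x, hx⟩, ?_, by simp⟩
  intro h2
  apply h1
  have : h = ⟨x, hx⟩⁻¹ * (⟨x, hx⟩ * h * ⟨x, hx⟩⁻¹) * ⟨x, hx⟩ := by group
  rw [this, h2]
  group

/-- **Package (NC).** -/
theorem norm_core [Fintype G] (L N : Subgroup G) [Fintype L] [Fintype N] (H : Subgroup L)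
    [hHn : H.Normal] [Fintype H] [Fintype (commutator H)] (K : Subgroup N) [hKn : K.Normal]
    (AL AN : Set G) (RL RN : G → Subgroup G) (hDL : DadeHypothesis AL L RL)
    (hDN : DadeHypothesis AN N RN) (hAN : ∀ x : N, (x : G) ∈ AN ↔ x ∈ K ∧ x ≠ 1)
    (hHA : ∀ x : L, x ∈ H → x ≠ 1 → (x : G) ∈ AL)
    (hD : ∀ g : G, ∀ a : L, a ∈ H → a ≠ 1 →
      (∃ r ∈ RL (a : G), ∃ x : G, x * g * x⁻¹ = (a : G) * r) →
      ∀ b : N, b ∈ K → b ≠ 1 → (∃ s ∈ RN (b : G), ∃ y : G, y * g * y⁻¹ = (b : G) * s) → False)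
    (ψ : G → ℂ) (hψ : IsGeneralizedCharacter G ψ) (hψ1 : classInner ψ ψ = 1)
    (ζ : N → ℂ) (hζ : IsIrrCharacter N ζ) (hvan : ∀ x : N, x ∉ K → ζ x = 0)
    (hdeg : ζ 1 = (K.index : ℂ)) (hK : K ≠ ⊤) (γ : ℝ)
    (hγ : ∀ k : N, k ∈ K → k ≠ 1 → cosetAvg RN ψ (k : G) = ζ k + (γ : ℂ)) (c : ℂ)
    (havg : ∀ x : H, x ∉ commutator H →
      (Nat.card (commutator H) : ℂ)⁻¹ *
        ∑ z : commutator H, dadeRho AL L RL ψ ((x * (z : H) : H) : L) = c) :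
    (Nat.card L : ℝ)⁻¹ * (((Nat.card H : ℝ) - Nat.card (commutator H)) * ‖c‖ ^ 2) +
      (Nat.card N : ℝ)⁻¹ * ((Nat.card N : ℝ) - (K.index : ℝ) ^ 2 - 2 * γ * K.index +
        γ ^ 2 * ((Nat.card K : ℝ) - 1)) ≤ 1 := by
  classical
  set A₁ : Set G := {g : G | ∃ h : L, h ∈ H ∧ h ≠ 1 ∧ (h : G) = g} with hA₁
  have hD₁ : DadeHypothesis A₁ L RL := dade_sub_normal L H AL RL hDL hHA
  have hdisj : ∀ g : G, (∃ a ∈ A₁, ∃ u ∈ RL a, ∃ x : G, x * g * x⁻¹ = a * u) →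
      (∃ a ∈ AN, ∃ u ∈ RN a, ∃ x : G, x * g * x⁻¹ = a * u) → False := by
    rintro g ⟨a, ⟨h, hh, h1, rfl⟩, r, hr, x, hx⟩ ⟨b, hb, s, hs, y, hy⟩
    have hbN : b ∈ N := hDN.subset hb
    have hb' := (hAN ⟨b, hbN⟩).mp hb
    exact hD g h hh h1 ⟨r, hr, x, hx⟩ ⟨b, hbN⟩ hb'.1 hb'.2 ⟨s, hs, y, hy⟩
  set f₁ : L → ℂ := dadeRho AL L RL ψ with hf₁def
  set f₂ : N → ℂ := fun k => cosetAvg RN ψ (k : G) with hf₂def
  have hf₁ : ∀ a : L, (a : G) ∈ A₁ →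
      f₁ a = (Nat.card (RL a) : ℂ)⁻¹ * ∑ᶠ u ∈ (RL a : Set G), ψ (a * u) := by
    rintro a ⟨h, hh, h1, e⟩
    have haA : (a : G) ∈ AL := by rw [← e]; exact hHA h hh h1
    rw [hf₁def, dadeRho_of_mem AL RL ψ haA]
    rfl
  have hf₂ : ∀ a : N, (a : G) ∈ AN →
      f₂ a = (Nat.card (RN a) : ℂ)⁻¹ * ∑ᶠ u ∈ (RN a : Set G), ψ (a * u) := by
    intro a _
    rfl
  have main := two_dade_norm_pm A₁ AN L N RL RN hD₁ hDN hdisj ψ hψ hψ1 f₁ f₂ hf₁ hf₂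
  -- the `N`-side sum
  have hNsum : ∑ᶠ a ∈ {a : N | (a : G) ∈ AN}, ‖f₂ a‖ ^ 2 =
      (Nat.card N : ℝ) - (K.index : ℝ) ^ 2 - 2 * γ * K.index +
        γ ^ 2 * ((Nat.card K : ℝ) - 1) := by
    rw [← Cfsg.Agent.Lib.Helper95.PF12.nside_sum_sq K ζ hζ hvan hdeg hK γ]
    have hset : {a : N | (a : G) ∈ AN} = {k : N | k ∈ K ∧ k ≠ 1} := by
      ext a
      exact hAN a
    rw [hset]
    apply finsum_mem_congr rfl
    rintro k ⟨hk, hk1⟩
    rw [hf₂def]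
    simp only
    rw [hγ k hk hk1]
  -- the `L`-side sum
  have hLsum : ((Nat.card H : ℝ) - Nat.card (commutator H)) * ‖c‖ ^ 2 ≤
      ∑ᶠ a ∈ {a : L | (a : G) ∈ A₁}, ‖f₁ a‖ ^ 2 := by
    have h1 := Cfsg.Agent.Lib.Helper95.PF12.lside_sum_sq (fun h : H => f₁ (h : L)) c havg
    have h2 : ∑ᶠ h ∈ {h : H | h ≠ 1}, ‖f₁ (h : L)‖ ^ 2 =
        ∑ᶠ a ∈ {a : L | (a : G) ∈ A₁}, ‖f₁ a‖ ^ 2 := by
      apply finsum_mem_eq_of_bijOn (fun h : H => (h : L))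
      · refine ⟨?_, ?_, ?_⟩
        · intro h hh
          exact ⟨(h : L), h.2, fun h0 => hh (Subtype.ext h0), rfl⟩
        · intro a _ b _ hab
          exact Subtype.ext hab
        · rintro a ⟨h, hh, h1, e⟩
          have hah : a = h := Subtype.ext e.symm
          refine ⟨⟨a, hah ▸ hh⟩, ?_, rfl⟩
          intro h0
          apply h1
          rw [← hah]
          exact congrArg Subtype.val h0
      · intro h _
        rfl
    rw [h2] at h1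
    exact h1
  rw [hNsum] at main
  have hLpos : (0 : ℝ) ≤ (Nat.card L : ℝ)⁻¹ := by positivity
  have := mul_le_mul_of_nonneg_left hLsum hLpos
  linarith

end Cfsg.Agent.Lib.Helper3.PF12
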